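import Cfsg.Agent.PermB.ZassFrobenius
import Cfsg.Agent.PermB.ZassCount
import Cfsg.Agent.OddChar.FixedPoint

/-!
# Zassenhaus type groups with a regular normal subgroup
-/

set_option autoImplicit false
set_option linter.style.haveILetI false

namespace Cfsg.Agent.Zassenhaus

open MulAction Cfsg.Agent.PermB

variable {G Ω : Type*} [Group G] [MulAction G Ω]

/-- In the kernel of a point stabiliser every element is a unique commutator with a given element
fixing a second point. -/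
theorem kernel_commutator_bijective [Finite G] (hz : ZData G Ω) {M : Subgroup G} {a b : Ω}
    (hM : IsKernel M a) (hb : b ≠ a) {x : G} (hx : x ∈ ZData.H2 (G := G) a b) (hx1 : x ≠ 1)
    {w : G} (hw : w ∈ M) : ∃! u : M, (u : G) * x * (u : G)⁻¹ * x⁻¹ = w := by
  have hxs : x ∈ stabilizer G a := (ZData.mem_H2.1 hx).1
  let f : M → M := fun u => ⟨(u : G) * x * (u : G)⁻¹ * x⁻¹, by
    rw [show (u : G) * x * (u : G)⁻¹ * x⁻¹ = u * (x * (u : G)⁻¹ * x⁻¹) by group]
    exact M.mul_mem u.2 (hM.conj x hxs _ (M.inv_mem u.2))⟩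
  have hf : Function.Injective f := by
    intro u v e
    have e' : (u : G) * x * (u : G)⁻¹ = (v : G) * x * (v : G)⁻¹ :=
      mul_right_cancel (congrArg Subtype.val e)
    refine Subtype.ext (inv_mul_eq_one.1 ?_).symm
    by_contra hne
    refine hx1 (hM.eq_one_of_commute hz hb hx (M.mul_mem (M.inv_mem v.2) u.2) hne ?_)
    calc x * ((v : G)⁻¹ * u) * x⁻¹ = (v : G)⁻¹ * ((v : G) * x * (v : G)⁻¹) * u * x⁻¹ := by group
      _ = (v : G)⁻¹ * ((u : G) * x * (u : G)⁻¹) * u * x⁻¹ := by rw [e']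
      _ = (v : G)⁻¹ * u := by group
  obtain ⟨u, hu⟩ := (Finite.injective_iff_surjective.1 hf) ⟨w, hw⟩
  exact ⟨u, congrArg Subtype.val hu, fun v hv => hf (Subtype.ext (hv.trans (congrArg Subtype.val hu).symm))⟩

theorem card_eq_two_pow_prime [Finite Ω] [FaithfulSMul G Ω]
    (h2 : IsMultiplyPretransitive G Ω 2)
    (h3 : ∀ g : G, ∀ a b c : Ω, a ≠ b → b ≠ c → a ≠ c → g • a = a → g • b = b → g • c = c → g = 1)
    (hfix : ∃ g : G, g ≠ 1 ∧ ∃ a b : Ω, a ≠ b ∧ g • a = a ∧ g • b = b)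
    (N : Subgroup G) [N.Normal] (hNt : IsPretransitive N Ω)
    (hNr : ∀ a : Ω, stabilizer N a = ⊥) :
    ∃ p : ℕ, p.Prime ∧ Nat.card Ω = 2 ^ p := by
  classical
  haveI := hNt
  haveI : Finite G := Finite.of_injective (MulAction.toPerm : G → Equiv.Perm Ω) MulAction.toPerm_injective
  have hz : ZData G Ω := ZData.of_isZassenhausGroup ‹_› h2 h3
  obtain ⟨g, hg1, a, b, hab, hga, hgb⟩ := hfix
  obtain ⟨hNc, hNe⟩ := PermLib.elementary_of_regular_normal h2 (hNr a)
  have hcardN : Nat.card N = Nat.card Ω := PermLib.card_eq_of_regular (hNr a)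
  have h3Ω : 3 ≤ Nat.card Ω := by
    haveI := Fintype.ofFinite Ω
    obtain ⟨c, hc⟩ : ∃ c : Ω, g • c ≠ c := by
      by_contra hne
      push Not at hne
      exact hg1 (hz.faithful g hne)
    rw [Nat.card_eq_fintype_card]
    exact Fintype.two_lt_card_iff.2 ⟨a, b, c, hab, fun e => hc (e ▸ hga), fun e => hc (e ▸ hgb)⟩
  haveI : Nontrivial N := Finite.one_lt_card_iff_nontrivial.1 (by omega)
  obtain ⟨p, k, hp, hk1, hNk, hexp⟩ := hNe inferInstance
  have hinj : ∀ {v w : G}, v ∈ N → w ∈ N → v • a = w • a → v = w := fun {v w} hv hw e =>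
    congrArg Subtype.val ((PermLib.smul_bijective_of_regular (hNr a)).1
      (a₁ := (⟨v, hv⟩ : N)) (a₂ := (⟨w, hw⟩ : N)) e)
  -- centraliser in `N` of an element fixing exactly the points `a` and `c`
  have hcent : ∀ {x : G} {c : Ω}, c ≠ a → x ≠ 1 → x • a = a → x • c = c →
      ∃ u ∈ N, u ≠ 1 ∧ u * u = 1 ∧
        ∀ v, v ∈ N ⊓ Subgroup.centralizer {x} ↔ (v = 1 ∨ v = u) := by
    intro x c hca hx1 hxa hxc
    obtain ⟨⟨u, hu⟩, huc⟩ := hNt.exists_smul_eq a c
    have huc' : u • a = c := huc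
    have hxu : x * u * x⁻¹ = u := hinj ((inferInstance : N.Normal).conj_mem u hu x) hu
      (by rw [PermLib.conj_smul_of_mem_stabilizer (mem_stabilizer_iff.2 hxa), huc', hxc])
    have hmem : ∀ v, v ∈ N → (x * v * x⁻¹ = v ↔ (v • a = a ∨ v • a = c)) := by
      intro v hv
      constructor
      · intro hxv
        by_contra hne
        push Not at hne
        refine hx1 (hz.three x hca.symm hne.2.symm hne.1.symm hxa hxc ?_)
        rw [← PermLib.conj_smul_of_mem_stabilizer (mem_stabilizer_iff.2 hxa) v, hxv]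
      · intro h
        refine hinj ((inferInstance : N.Normal).conj_mem v hv x) hv ?_
        rw [PermLib.conj_smul_of_mem_stabilizer (mem_stabilizer_iff.2 hxa)]
        rcases h with h | h <;> rw [h] <;> assumption
    have hu1 : u ≠ 1 := fun e => hca (by rw [← huc', e, one_smul])
    refine ⟨u, hu, hu1, ?_, fun v => ⟨fun hv => ?_, fun hv => ?_⟩⟩
    · have h1 : x * (u * u) * x⁻¹ = u * u := by
        calc x * (u * u) * x⁻¹ = (x * u * x⁻¹) * (x * u * x⁻¹) := by group
          _ = u * u := by rw [hxu]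
      rcases (hmem _ (N.mul_mem hu hu)).1 h1 with h | h
      · exact hinj (N.mul_mem hu hu) N.one_mem (by rw [h, one_smul])
      · exact absurd (hinj (N.mul_mem hu hu) hu (by rw [h, huc'])) (by simpa using hu1)
    · obtain ⟨hvN, hvC⟩ := Subgroup.mem_inf.1 hv
      have hc' : x * v * x⁻¹ = v := by
        rw [(Subgroup.mem_centralizer_singleton_iff.1 hvC).symm, mul_inv_cancel_right]
      rcases (hmem v hvN).1 hc' with h | h
      · exact Or.inl (hinj hvN N.one_mem (by rw [h, one_smul]))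
      · exact Or.inr (hinj hvN hu (by rw [h, huc']))
    · rcases hv with rfl | rfl
      · exact one_mem _
      · refine Subgroup.mem_inf.2 ⟨hu, Subgroup.mem_centralizer_singleton_iff.2 ?_⟩
        nth_rewrite 1 [← hxu]
        group
  have hcent2 : ∀ {x : G} {c : Ω}, c ≠ a → x ≠ 1 → x • a = a → x • c = c →
      Nat.card ↥(N ⊓ Subgroup.centralizer {x}) = 2 := by
    intro x c hca hx1 hxa hxc
    obtain ⟨u, -, hu1, -, hiff⟩ := hcent hca hx1 hxa hxc
    have he : ((N ⊓ Subgroup.centralizer {x} : Subgroup G) : Set G) = {1, u} :=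
      Set.ext fun v => hiff v
    rw [← SetLike.coe_sort_coe, Nat.card_coe_set_eq, he, Set.ncard_pair (Ne.symm hu1)]
  obtain rfl : p = 2 := by
    obtain ⟨u, hu, hu1, huu, -⟩ := hcent hab.symm hg1 hga hgb
    have hdvd : orderOf u ∣ p := orderOf_dvd_of_pow_eq_one (congrArg Subtype.val (hexp ⟨u, hu⟩))
    have h2' : orderOf u = 2 := orderOf_eq_prime (by rw [sq, huu]) hu1
    rw [h2'] at hdvd
    exact ((Nat.prime_dvd_prime_iff_eq Nat.prime_two hp).1 hdvd).symm
  refine ⟨k, ?_, by rw [← hcardN, hNk]⟩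
  have hk2 : 2 ≤ k := by
    by_contra hlt
    obtain rfl : k = 1 := by omega
    omega
  set H : Subgroup G := ZData.H2 a b with hH
  have hH1 : g ∈ H := ZData.mem_H2.2 ⟨hga, hgb⟩
  by_cases hev : 2 ∣ Nat.card H
  · -- an involution centralises at most half of the exponents
    haveI : Fact (Nat.Prime 2) := ⟨Nat.prime_two⟩
    obtain ⟨⟨t, htH⟩, ht⟩ := exists_prime_orderOf_dvd_card' (G := H) 2 hev
    rw [Subgroup.orderOf_mk] at ht
    have ht1 : t ≠ 1 := fun e => by rw [e, orderOf_one] at ht; omega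
    have htt : t * t = 1 := by rw [← sq, ← ht, pow_orderOf_eq_one]
    have hC := hcent2 hab.symm ht1 (ZData.mem_H2.1 htH).1 (ZData.mem_H2.1 htH).2
    let _ : CommGroup N := { (inferInstance : Group N) with mul_comm := hNc.is_comm.comm }
    let f : N →* N :=
      { toFun := fun v => v * MulAut.conjNormal t v
        map_one' := by simp
        map_mul' := fun v w => by rw [map_mul]; exact mul_mul_mul_comm _ _ _ _ }
    have hker : Nat.card f.ker ≤ 2 := by
      rw [← hC]
      refine Nat.card_le_card_of_injective (fun v : f.ker =>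
        (⟨((v : N) : G), Subgroup.mem_inf.2 ⟨(v : N).2, ?_⟩⟩ : ↥(N ⊓ Subgroup.centralizer {t})))
        fun v w e => Subtype.ext (Subtype.ext (congrArg Subtype.val e :))
      have h1 : (v : N) * MulAut.conjNormal t (v : N) = 1 := v.2
      have h2' : MulAut.conjNormal t (v : N) = (v : N) := by
        rw [mul_eq_one_iff_inv_eq] at h1
        rw [← h1]
        refine inv_eq_of_mul_eq_one_left ?_
        rw [← sq]
        exact hexp _
      rw [Subgroup.mem_centralizer_singleton_iff]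
      have h3' : t * ((v : N) : G) * t⁻¹ = ((v : N) : G) := by
        simpa using congrArg Subtype.val h2'
      conv_lhs => rw [← h3']
      group
    have hrange : Nat.card f.range ≤ 2 := by
      rw [← hC]
      refine Nat.card_le_card_of_injective (fun v : f.range =>
        (⟨((v : N) : G), Subgroup.mem_inf.2 ⟨(v : N).2, ?_⟩⟩ : ↥(N ⊓ Subgroup.centralizer {t})))
        fun v w e => Subtype.ext (Subtype.ext (congrArg Subtype.val e :))
      obtain ⟨_, w, rfl⟩ := v
      rw [Subgroup.mem_centralizer_singleton_iff]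
      show ((w * MulAut.conjNormal t w : N) : G) * t = t * ((w * MulAut.conjNormal t w : N) : G)
      have hc := congrArg Subtype.val (hNc.is_comm.comm w (MulAut.conjNormal t w))
      simp only [Subgroup.coe_mul, MulAut.conjNormal_apply] at hc ⊢
      have hti : t⁻¹ = t := inv_eq_of_mul_eq_one_right htt
      rw [hti] at hc ⊢
      conv_rhs => rw [hc]
      calc (w : G) * (t * w * t) * t = w * (t * w * (t * t)) := by group
        _ = (w : G) * t * w := by rw [htt]; group
        _ = (t * t) * ((w : G) * t * w) := by rw [htt, one_mul]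
        _ = t * (t * (w : G) * t * w) := by group
    have hle : Nat.card N ≤ 4 := by
      rw [Subgroup.card_eq_card_quotient_mul_card_subgroup f.ker,
        Nat.card_congr (QuotientGroup.quotientKerEquivRange f).toEquiv]
      exact (Nat.mul_le_mul hrange hker).trans (by norm_num)
    rw [hNk] at hle
    have : k ≤ 2 := (Nat.pow_le_pow_iff_right one_lt_two).1 (show 2 ^ k ≤ 2 ^ 2 by simpa using hle)
    rw [show k = 2 by omega]
    exact Nat.prime_two
  -- a Frobenius group of operators with fixed points only for the complements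
  have hHgt : 1 < Nat.card H := by
    haveI : Nontrivial H := ⟨⟨⟨g, hH1⟩, 1, fun e => hg1 (congrArg Subtype.val e)⟩⟩
    exact Finite.one_lt_card
  obtain ⟨r, hr, hrd⟩ := Nat.exists_prime_and_dvd hHgt.ne'
  haveI : Fact r.Prime := ⟨hr⟩
  obtain ⟨⟨h, hhH⟩, hh⟩ := exists_prime_orderOf_dvd_card' (G := H) r hrd
  rw [Subgroup.orderOf_mk] at hh
  obtain ⟨M, hM⟩ := hz.exists_kernel hab
  have hMcard := hM.card_add_one hab.symm
  set Z : Subgroup G := Subgroup.zpowers h with hZdef
  have hZH : Z ≤ H := Subgroup.zpowers_le.2 hhH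
  have hZa : ∀ z ∈ Z, z ∈ stabilizer G a := fun z hz' => (ZData.mem_H2.1 (hZH hz')).1
  let S : Subgroup G :=
    { carrier := {x | ∃ u ∈ M, ∃ z ∈ Z, x = u * z}
      one_mem' := ⟨1, M.one_mem, 1, Z.one_mem, by rw [one_mul]⟩
      mul_mem' := by
        rintro _ _ ⟨u, hu, z, hzZ, rfl⟩ ⟨u', hu', z', hz', rfl⟩
        exact ⟨u * (z * u' * z⁻¹), M.mul_mem hu (hM.conj z (hZa z hzZ) u' hu'), z * z',
          Z.mul_mem hzZ hz', by group⟩
      inv_mem' := by
        rintro _ ⟨u, hu, z, hzZ, rfl⟩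
        exact ⟨z⁻¹ * u⁻¹ * (z⁻¹)⁻¹, hM.conj z⁻¹ (hZa _ (Z.inv_mem hzZ)) _ (M.inv_mem hu), z⁻¹,
          Z.inv_mem hzZ, by group⟩ }
  have hMZ : ∀ {x : G}, x ∈ M → x ∈ Z → x = 1 := fun {x} hx hxZ =>
    hM.eq_one hx hab.symm (ZData.mem_H2.1 (hZH hxZ)).2
  have huniq : ∀ {u u' z z' : G}, u ∈ M → u' ∈ M → z ∈ Z → z' ∈ Z → u * z = u' * z' →
      u = u' ∧ z = z' := by
    intro u u' z z' hu hu' hzZ hz' e
    have h1 : u'⁻¹ * u = z' * z⁻¹ := by
      calc u'⁻¹ * u = u'⁻¹ * (u * z) * z⁻¹ := by group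
        _ = z' * z⁻¹ := by rw [e]; group
    have h2' := hMZ (M.mul_mem (M.inv_mem hu') hu) (h1 ▸ Z.mul_mem hz' (Z.inv_mem hzZ))
    exact ⟨(inv_mul_eq_one.1 h2').symm, (mul_inv_eq_one.1 (h1.symm.trans h2')).symm⟩
  have hScard : Nat.card S = Nat.card M * r := by
    rw [← hh, ← Nat.card_zpowers, ← hZdef, ← Nat.card_prod]
    refine (Nat.card_congr (Equiv.ofBijective
      (fun uz : M × Z => (⟨uz.1 * uz.2, uz.1, uz.1.2, uz.2, uz.2.2, rfl⟩ : S)) ⟨?_, ?_⟩)).symm
    · intro x y e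
      obtain ⟨e1, e2⟩ := huniq x.1.2 y.1.2 x.2.2 y.2.2 (congrArg Subtype.val e)
      exact Prod.ext (Subtype.ext e1) (Subtype.ext e2)
    · rintro ⟨_, u, hu, z, hzZ, rfl⟩
      exact ⟨(⟨u, hu⟩, ⟨z, hzZ⟩), rfl⟩
  have hMpow : Nat.card M + 1 = 2 ^ k := by rw [hMcard, ← hcardN, hNk]
  have hSodd : ¬ 2 ∣ Nat.card S := by
    rw [hScard, Nat.prime_two.dvd_mul]
    rintro (h' | h')
    · have : 2 ∣ 2 ^ k := dvd_pow_self 2 (by omega)
      omega
    · exact hev (((Nat.prime_dvd_prime_iff_eq Nat.prime_two hr).1 h') ▸ hrd)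
  haveI : Fact (Nat.Prime 2) := ⟨Nat.prime_two⟩
  haveI : Fintype M := Fintype.ofFinite _
  let A : M ⊕ Fin 3 → Subgroup G := fun i =>
    match i with
    | Sum.inl x => Z.map (MulAut.conj (x : G)).toMonoidHom
    | Sum.inr 0 => M
    | Sum.inr 1 => S
    | Sum.inr 2 => ⊥
  let w₁ : M ⊕ Fin 3 → ℕ := Sum.elim (fun _ => 1) ![1, 0, 0]
  let w₂ : M ⊕ Fin 3 → ℕ := Sum.elim (fun _ => 0) ![0, 1, Nat.card M]
  have hMS : M ≤ S := fun u hu => ⟨u, hu, 1, Z.one_mem, by rw [mul_one]⟩
  have hA : ∀ i, A i ≤ S := by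
    rintro (x | i)
    · rintro _ ⟨z, hzZ, rfl⟩
      exact ⟨(x : G) * (z * (x : G)⁻¹ * z⁻¹), M.mul_mem x.2 (hM.conj z (hZa z hzZ) _ (M.inv_mem x.2)),
        z, hzZ, by simp [mul_assoc]⟩
    · fin_cases i
      exacts [hMS, le_rfl, bot_le]
  have hmemconj : ∀ (x : M) (y : G), y ∈ A (Sum.inl x) ↔ ∃ z ∈ Z, (x : G) * z * (x : G)⁻¹ = y :=
    fun x y => Iff.rfl
  have hbal : ∀ y ∈ S, ∑ i, (if y ∈ A i then w₁ i else 0) = ∑ i, (if y ∈ A i then w₂ i else 0) := by
    rintro _ ⟨u, hu, z, hzZ, rfl⟩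
    rw [Fintype.sum_sum_type, Fintype.sum_sum_type, Fin.sum_univ_three, Fin.sum_univ_three]
    have hS' : u * z ∈ A (Sum.inr 1) := ⟨u, hu, z, hzZ, rfl⟩
    have hiM : u * z ∈ A (Sum.inr 0) ↔ z = 1 := by
      constructor
      · intro h'
        exact hMZ (by simpa using M.mul_mem (M.inv_mem hu) h') hzZ
      · rintro rfl
        rw [mul_one]; exact hu
    have hi0 : u * z ∈ A (Sum.inr 2) ↔ u * z = 1 := Subgroup.mem_bot
    simp only [w₁, w₂, Sum.elim_inl, Sum.elim_inr, Matrix.cons_val_zero, Matrix.cons_val_one,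
      Matrix.cons_val_two, Matrix.head_cons, Matrix.tail_cons, ite_self, add_zero, zero_add,
      if_pos hS', Finset.sum_const_zero, hiM, hi0]
    rw [Finset.sum_boole, Nat.cast_id]
    by_cases hz1 : z = 1
    · subst hz1
      rw [mul_one, if_pos rfl]
      by_cases hu1 : u = 1
      · subst hu1
        rw [if_pos rfl, Finset.filter_true_of_mem (fun x _ => one_mem _), Finset.card_univ,
          Nat.card_eq_fintype_card, add_comm]
      · rw [if_neg hu1, Finset.filter_false_of_mem ?_, Finset.card_empty]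
        intro x _ hx
        obtain ⟨z', hz', e⟩ := (hmemconj x u).1 hx
        refine hu1 ?_
        have : z' = 1 := hMZ (by
          rw [show z' = (x : G)⁻¹ * ((x : G) * z' * (x : G)⁻¹) * x by group, e]
          exact M.mul_mem (M.mul_mem (M.inv_mem x.2) hu) x.2) hz'
        rw [← e, this]; group
    · have huz : u * z ≠ 1 := fun e => hz1 (hMZ (inv_eq_of_mul_eq_one_right e ▸ M.inv_mem hu) hzZ)
      rw [if_neg hz1, if_neg huz, add_zero, Finset.card_eq_one]
      obtain ⟨x₀, hx₀, hux₀⟩ := kernel_commutator_bijective hz hM hab.symm (hZH hzZ) hz1 hu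
      refine ⟨x₀, Finset.eq_singleton_iff_unique_mem.2 ⟨?_, fun x hx => hux₀ x ?_⟩⟩
      · rw [Finset.mem_filter]
        refine ⟨Finset.mem_univ _, (hmemconj _ _).2 ⟨z, hzZ, ?_⟩⟩
        conv_rhs => rw [← hx₀]
        group
      · obtain ⟨z', hz', e⟩ := (hmemconj _ _).1 (Finset.mem_filter.1 hx).2
        obtain ⟨e1, e2⟩ := huniq (u := (x : G) * (z' * (x : G)⁻¹ * z'⁻¹))
          (M.mul_mem x.2 (hM.conj z' (hZa z' hz') _ (M.inv_mem x.2))) hu hz' hzZ (by rw [← e]; group)
        rw [← e1, ← e2]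
        group
  have hNM : N ⊓ Subgroup.centralizer (M : Set G) = ⊥ := by
    rw [Subgroup.eq_bot_iff_forall]
    intro v hv
    obtain ⟨hvN, hvC⟩ := Subgroup.mem_inf.1 hv
    by_contra hv1
    have hva : v • a ≠ a := fun e => hv1 (hinj hvN N.one_mem (by rw [e, one_smul]))
    obtain ⟨c, hca, hcv⟩ := exists_ne_ne h3Ω a (v • a)
    obtain ⟨x, hx, hxc⟩ := hM.exists_smul hva hca
    refine hcv ?_
    rw [← hxc, ← mul_smul, Subgroup.mem_centralizer_iff.1 hvC x hx, mul_smul,
      mem_stabilizer_iff.1 (hM.le hx)]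
  have hform := OddChar.FixedPoint.card_fixed_prod_elementary (p := 2) S N hNc
    (fun x hx => congrArg Subtype.val (hexp ⟨x, hx⟩)) hSodd A hA w₁ w₂ hbal
  have hC0 : Nat.card ↥(N ⊓ Subgroup.centralizer (A (Sum.inr 0) : Set G)) = 1 := by
    show Nat.card ↥(N ⊓ Subgroup.centralizer (M : Set G)) = 1
    rw [hNM, Subgroup.card_bot]
  have hC1 : Nat.card ↥(N ⊓ Subgroup.centralizer (A (Sum.inr 1) : Set G)) = 1 := by
    show Nat.card ↥(N ⊓ Subgroup.centralizer (S : Set G)) = 1
    rw [show N ⊓ Subgroup.centralizer (S : Set G) = ⊥ from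
      le_bot_iff.1 (hNM ▸ inf_le_inf_left N (Subgroup.centralizer_le hMS)), Subgroup.card_bot]
  have hC2 : Nat.card ↥(N ⊓ Subgroup.centralizer (A (Sum.inr 2) : Set G)) = 2 ^ k := by
    have : N ⊓ Subgroup.centralizer (A (Sum.inr 2) : Set G) = N := inf_eq_left.2 fun v _ =>
      Subgroup.mem_centralizer_iff.2 fun x hx => by
        have hx1 : x = 1 := Subgroup.mem_bot.1 hx
        rw [hx1, one_mul, mul_one]
    rw [this, hNk]
  have hh1 : h ≠ 1 := fun e => hr.ne_one (by rw [← hh, e, orderOf_one])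
  have hCx : ∀ x : M, Nat.card ↥(N ⊓ Subgroup.centralizer (A (Sum.inl x) : Set G)) = 2 ∧
      Nat.card (A (Sum.inl x)) = r := by
    intro x
    have he : A (Sum.inl x) = Subgroup.zpowers ((x : G) * h * (x : G)⁻¹) := by
      show Z.map _ = _
      rw [hZdef, MonoidHom.map_zpowers]
      rfl
    constructor
    · rw [he, Subgroup.zpowers_eq_closure, Subgroup.centralizer_closure]
      exact hcent2 (c := (x : G) • b) (hM.smul_ne x.2 hab.symm)
        (fun e => hh1 (conj_eq_one_iff.1 e))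
        (by rw [mul_smul, mul_smul, inv_smul_eq_iff.2 (mem_stabilizer_iff.1 (hM.le x.2)).symm,
          (ZData.mem_H2.1 hhH).1, mem_stabilizer_iff.1 (hM.le x.2)])
        (by rw [mul_smul, mul_smul, inv_smul_smul, (ZData.mem_H2.1 hhH).2])
    · rw [he, Nat.card_zpowers, ← MulAut.conj_apply, MulEquiv.orderOf_eq, hh]
  simp only [Fintype.prod_sum_type, Fin.prod_univ_three, hC0, hC1, hC2, w₁, w₂, Sum.elim_inl,
    Sum.elim_inr, Matrix.cons_val_zero, Matrix.cons_val_one, Matrix.cons_val_two,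
    Matrix.head_cons, Matrix.tail_cons, one_pow, one_mul, zero_mul, pow_zero, mul_one,
    Finset.prod_const_one] at hform
  rw [show Nat.card (A (Sum.inr 2)) = 1 from Subgroup.card_bot, mul_one, ← pow_mul,
    Finset.prod_congr rfl (fun x _ => by rw [(hCx x).1, (hCx x).2]), Finset.prod_const,
    Finset.card_univ, ← Nat.card_eq_fintype_card, ← pow_mul] at hform
  have hkr := Nat.pow_right_injective le_rfl hform
  have : r = k := Nat.eq_of_mul_eq_mul_right Nat.card_pos hkr
  exact this ▸ hr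

end Cfsg.Agent.Zassenhaus
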