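import Cfsg.Agent.Zassenhaus.PrimePower
import Cfsg.Agent.CharDeep.ZassClasses

/-!
# An abelian kernel and a two point stabiliser of odd order leave at most two exceptional characters
-/

set_option autoImplicit false
set_option linter.style.haveILetI false
set_option linter.style.openClassical false
set_option linter.unusedSectionVars false

noncomputable section

open scoped Classical
open MulAction
open Cfsg.Agent.PermB
open Cfsg.Agent.CharExt (KTriv)
open Cfsg.Agent.CharDeep.ZC (fpfClasses half_le_fpfClasses half_le_twoPointClasses swapInvol_of_simple)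

namespace Cfsg.Agent.Zassenhaus

universe u v

/-- A character of a simple group with all constituents on `M` trivial on `L` is trivial. -/
theorem eq_trivialIrr_of_mult_eq_zero {G : Type u} [Group G] [Fintype G] {M : Subgroup G}
    [Fintype M] {L : Subgroup M} [L.Normal] [IsSimpleGroup G] (hne : L ≠ ⊥)
    (ψ : Cfsg.IrrCharacter G) (h0 : ∀ η : Cfsg.IrrCharacter M, ¬ KTriv L η → mult ψ η = 0) :
    ψ = Char.trivialIrr G := by
  obtain ⟨K, hKn, hK⟩ := Char.isCharacter_exists_kernel (Char.isCharacter_of_irr ψ.2)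
  have hres := Char.eq_sum_classInner_smul (f := fun x : M => (ψ : G → ℂ) x)
    (fun g h => Char.irr_isClassFunction ψ.2 g h)
  have hmem : ∀ k ∈ L, ((k : M) : G) ∈ K := by
    intro k hk
    refine (hK _).2 ?_
    have e1 := congrFun hres k
    have e2 := congrFun hres 1
    simp only [Finset.sum_apply, Pi.smul_apply, smul_eq_mul, mult_spec, OneMemClass.coe_one] at e1 e2
    rw [e1, e2]
    refine Finset.sum_congr rfl fun η _ => ?_
    by_cases hη : KTriv L η
    · rw [hη k hk]
    · simp [h0 η hη]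
  rcases hKn.eq_bot_or_eq_top with hbot | htop
  · refine absurd ((Subgroup.eq_bot_iff_forall _).2 fun k hk => Subtype.ext ?_) hne
    simpa [hbot] using hmem k hk
  · have hall : ∀ g, (ψ : G → ℂ) g = (ψ : G → ℂ) 1 := fun g => (hK g).1 (htop ▸ Subgroup.mem_top g)
    refine Subtype.ext ?_
    show (ψ : G → ℂ) = fun _ => 1
    by_contra h1
    have h := Char.irr_sum_eq_zero ψ.2 h1
    rw [Finset.sum_congr rfl (fun g _ => hall g), Finset.sum_const, nsmul_eq_mul, mul_eq_zero] at h
    rcases h with h | h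
    · simp at h
    · exact Char.irr_one_ne_zero ψ.2 h

/-- If a group has at least `1 + k + d` classes then the exceptional characters are the members of
the family, with sign `1`. -/
theorem abelian_false_of_classes {G : Type u} [Group G] [Fintype G] {M : Subgroup G}
    [Fintype M] {L : Subgroup M} [L.Normal] [IsSimpleGroup G] (hS : TISetup M L) (hne : L ≠ ⊥)
    (hfam : ∀ η : Cfsg.IrrCharacter M, ¬ KTriv L η → deg η = L.index)
    (hk3 : 3 ≤ Fintype.card (Fam M L))
    (hcl : 1 + Fintype.card (Fam M L) + L.index ≤ Nat.card (ConjClasses G))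
    (hodd : Odd L.index) (hd3 : 3 ≤ L.index)
    (hlin : ∀ β : Cfsg.IrrCharacter M, KTriv L β → deg β = 1)
    (hreal : ∀ g : M, g ∉ L → IsConj (g : G) (g : G)⁻¹) : False := by
  obtain ⟨χ, χ', hχ⟩ := Fintype.one_lt_card_iff.1 (show 1 < Fintype.card (Fam M L) by omega)
  obtain ⟨ε, f, hε, hf, hdiff⟩ := exists_family hS ⟨χ, χ', hχ⟩
  obtain ⟨e, he, hee⟩ : ∃ e : ℤ, (e = 1 ∨ e = -1) ∧ ε = (e : ℂ) := by
    rcases hε with h | h
    · exact ⟨1, Or.inl rfl, by simp [h]⟩
    · exact ⟨-1, Or.inr rfl, by simp [h]⟩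
  have hsub : ∀ (ψ : Cfsg.IrrCharacter G) (η η' : Fam M L),
      (mult ψ η.1 : ℤ) - mult ψ η'.1 = e * ((if ψ = f η then 1 else 0) - if ψ = f η' then 1 else 0) := by
    intro ψ η η'
    have h := mult_sub hε hdiff ψ η η'
    rw [hee] at h
    apply Int.cast_injective (α := ℂ)
    push_cast
    exact h
  have hc : ∀ η ξ ξ' : Fam M L, η ≠ ξ → η ≠ ξ' → mult (f η) ξ.1 = mult (f η) ξ'.1 := by
    intro η ξ ξ' h1 h2
    have h := hsub (f η) ξ ξ'
    rw [if_neg (fun e => h1 (hf e)), if_neg (fun e => h2 (hf e)), sub_self, mul_zero] at h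
    omega
  -- the two columns
  have hcross : ∀ η η' : Fam M L, η ≠ η' → (mult (f η) η.1 : ℤ) - mult (f η') η.1 = e := by
    intro η η' hη
    have h1 : (∑ ψ : Cfsg.IrrCharacter G, (mult ψ η.1 : ℤ) * mult ψ η.1) = L.index + 1 := by
      exact_mod_cast column_family hS η
    have h2 : (∑ ψ : Cfsg.IrrCharacter G, (mult ψ η.1 : ℤ) * mult ψ η'.1) = L.index := by
      have h := ind_inner_exc hS η.2.1 η'.1
      rw [if_neg (fun e => hη (Subtype.ext e)), η.2.2, η'.2.2, zero_add, mul_div_assoc,
        div_self (Nat.cast_ne_zero.2 Subgroup.index_ne_zero_of_finite), mul_one] at h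
      have h' : (∑ ψ : Cfsg.IrrCharacter G, mult ψ η.1 * mult ψ η'.1) = L.index := by
        exact_mod_cast h
      exact_mod_cast h'
    have h3 : (∑ ψ : Cfsg.IrrCharacter G, (mult ψ η.1 : ℤ) *
        (e * ((if ψ = f η then 1 else 0) - if ψ = f η' then 1 else 0))) = 1 := by
      rw [Finset.sum_congr rfl (g := fun ψ => (mult ψ η.1 : ℤ) * mult ψ η.1 - mult ψ η.1 * mult ψ η'.1)
        fun ψ _ => by rw [← hsub, mul_sub], Finset.sum_sub_distrib, h1, h2]
      ring
    simp only [mul_sub, Finset.sum_sub_distrib, mul_ite, mul_one, mul_zero, Finset.sum_ite_eq',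
      Finset.mem_univ, if_true] at h3
    rcases he with rfl | rfl <;> omega
  have hdg : ∀ η ξ : Fam M L, η ≠ ξ → (mult (f η) η.1 : ℤ) = mult (f η) ξ.1 + e := by
    intro η ξ h
    have := hsub (f η) η ξ
    rw [if_pos rfl, if_neg (fun e => h (hf e))] at this
    linarith
  set c := mult (f χ') χ.1 with hcdef
  have hother : ∀ ξ : Fam M L, ξ ≠ χ → mult (f ξ) χ.1 = c := by
    intro ξ hξ
    have := hcross χ ξ hξ.symm
    have := hcross χ χ' hχ
    omega
  have hdiag : (mult (f χ) χ.1 : ℤ) = c + e := by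
    have := hcross χ χ' hχ
    omega
  -- the column of `χ`
  set R := Finset.univ.image f with hR
  set W := Rᶜ.filter fun ψ => mult ψ χ.1 ≠ 0 with hW
  set k := Fintype.card (Fam M L) with hk
  have hsum : (∑ ψ ∈ Rᶜ, (mult ψ χ.1 : ℤ) * mult ψ χ.1) = L.index - k * c * c - 2 * e * c := by
    have h : (∑ ψ : Cfsg.IrrCharacter G, (mult ψ χ.1 : ℤ) * mult ψ χ.1) = L.index + 1 := by
      exact_mod_cast column_family hS χ
    rw [← Finset.sum_add_sum_compl R] at h
    have h1 : (∑ ψ ∈ R, (mult ψ χ.1 : ℤ) * mult ψ χ.1) = k * c * c + 2 * e * c + 1 := by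
      rw [hR, Finset.sum_image fun a _ b _ e => hf e,
        ← Finset.sum_erase_add Finset.univ _ (Finset.mem_univ χ),
        Finset.sum_congr rfl (g := fun _ => (c : ℤ) * c) (fun ξ hξ => by
          rw [hother ξ (Finset.ne_of_mem_erase hξ)]),
        Finset.sum_const, Finset.card_erase_of_mem (Finset.mem_univ _), Finset.card_univ, hdiag,
        nsmul_eq_mul, ← hk, Nat.cast_sub (show 1 ≤ k by omega), Nat.cast_one]
      rcases he with rfl | rfl <;> ring
    linarith
  have hWle : (W.card : ℤ) ≤ ∑ ψ ∈ Rᶜ, (mult ψ χ.1 : ℤ) * mult ψ χ.1 := by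
    calc (W.card : ℤ) = ∑ _ψ ∈ W, (1 : ℤ) := by simp
      _ ≤ ∑ ψ ∈ W, (mult ψ χ.1 : ℤ) * mult ψ χ.1 := Finset.sum_le_sum fun ψ hψ => by
          have : 1 ≤ (mult ψ χ.1 : ℤ) := by
            have := (Finset.mem_filter.1 hψ).2
            omega
          nlinarith
      _ ≤ _ := Finset.sum_le_sum_of_subset_of_nonneg (Finset.filter_subset _ _)
          fun ψ _ _ => mul_self_nonneg _
  have hcount : Fintype.card (Cfsg.IrrCharacter G) ≤ k + W.card + 1 := by
    have hcover : (Finset.univ : Finset (Cfsg.IrrCharacter G)) ⊆ R ∪ W ∪ {Char.trivialIrr G} := by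
      intro ψ _
      simp only [Finset.mem_union, Finset.mem_singleton]
      by_cases hψR : ψ ∈ R
      · exact Or.inl (Or.inl hψR)
      by_cases hψW : ψ ∈ W
      · exact Or.inl (Or.inr hψW)
      refine Or.inr (eq_trivialIrr_of_mult_eq_zero hne ψ fun η hη => ?_)
      have hm0 : mult ψ χ.1 = 0 := by
        by_contra hm
        exact hψW (Finset.mem_filter.2 ⟨Finset.mem_compl.2 hψR, hm⟩)
      have := hsub ψ ⟨η, hη, hfam η hη⟩ χ
      rw [if_neg (fun e => hψR (Finset.mem_image.2 ⟨_, Finset.mem_univ _, e.symm⟩)),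
        if_neg (fun e => hψR (Finset.mem_image.2 ⟨χ, Finset.mem_univ _, e.symm⟩)), hm0] at this
      simpa using this
    refine (Finset.card_le_card hcover).trans ?_
    refine (Finset.card_union_le _ _).trans (Nat.add_le_add ?_ (le_of_eq (Finset.card_singleton _)))
    refine (Finset.card_union_le _ _).trans (Nat.add_le_add_right ?_ _)
    exact Finset.card_image_le
  rw [← Char.card_irr_eq_card_conjClasses, Nat.card_eq_fintype_card] at hcl
  have hkc : (k : ℤ) * c * c + 2 * e * c ≤ 0 := by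
    zify at hcl hcount
    linarith
  have hk0 : (3 : ℤ) ≤ k := by exact_mod_cast hk3
  obtain ⟨rfl, hc0⟩ : e = 1 ∧ c = 0 := by
    rcases he with rfl | rfl
    · refine ⟨rfl, ?_⟩
      by_contra hne0
      have h1 : (1 : ℤ) ≤ c := by omega
      have := mul_le_mul_of_nonneg_right hk0 (mul_nonneg (show (0 : ℤ) ≤ c by omega) (show (0 : ℤ) ≤ c by omega))
      rw [mul_assoc] at hkc
      nlinarith
    · exfalso
      have h1 : (1 : ℤ) ≤ c := by omega
      have := mul_le_mul_of_nonneg_right hk0 (mul_nonneg (show (0 : ℤ) ≤ c by omega) (show (0 : ℤ) ≤ c by omega))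
      have := mul_le_mul_of_nonneg_right h1 (show (0 : ℤ) ≤ c by omega)
      rw [mul_assoc] at hkc
      nlinarith
  have hε1 : ε = 1 := by simpa using hee
  subst hε1
  refine abelian_false_core hS hfam hk3 hf hdiff (fun η => ?_) hodd hd3 hlin hreal
  obtain ⟨ξ, hξ⟩ := Fintype.exists_ne_of_one_lt_card (show 1 < k by omega) η
  refine ⟨ξ, hξ, ?_⟩
  by_cases hηχ : η = χ
  · subst hηχ; rw [hother ξ hξ, hc0]
  by_cases hξχ : ξ = χ
  · subst hξχ
    obtain ⟨ζ, hζ1, hζ2⟩ : ∃ ζ : Fam M L, ζ ≠ η ∧ ζ ≠ ξ := by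
      by_contra hno
      push Not at hno
      have : k ≤ 2 := by
        rw [hk, ← Finset.card_univ]
        exact (Finset.card_le_card (t := ({η, ξ} : Finset (Fam M L))) fun z _ => by
          by_cases hz : z = η
          · simp [hz]
          · simp [hno z hz]).trans Finset.card_le_two
      omega
    rw [hc ξ η ζ hξ hζ2.symm]
    have := hdg ξ ζ hζ2.symm
    omega
  · rw [hc ξ η χ hξ hξχ, hother ξ hξχ, hc0]

variable {G : Type u} [Group G] {Ω : Type v} [MulAction G Ω] [Finite G] [Finite Ω]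

/-- A lower bound for the number of classes of a simple Zassenhaus group with abelian kernel. -/
theorem classes_ge [IsSimpleGroup G] (hZ : Cfsg.IsZassenhausGroup G Ω) {N : Subgroup G} {a b : Ω}
    (hab : a ≠ b) (hN : IsKernel N a) (hNc : IsMulCommutative N) {k : ℕ}
    (hk : k * Nat.card (ZData.H2 (G := G) a b) + 1 = Nat.card N) (hk2 : 2 ≤ k)
    (hodd : Odd (Nat.card (ZData.H2 (G := G) a b))) :
    1 + k + Nat.card (ZData.H2 (G := G) a b) ≤ Nat.card (ConjClasses G) := by
  haveI : Fintype G := Fintype.ofFinite G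
  haveI : Fintype Ω := Fintype.ofFinite Ω
  have hz := zData_of_isZassenhausGroup hZ
  have hsw := swapInvol_of_simple hZ
  have hh : Nat.card Ω = Nat.card N + 1 := (hN.card_add_one hab.symm).symm
  have h3 := three_le_card_of_isZassenhausGroup hZ
  have hd1 := one_lt_card_H2 hZ hab
  set d := Nat.card (ZData.H2 (G := G) a b) with hd
  have hlt : d + 1 < Nat.card N := by
    rw [← hk]
    have := Nat.mul_le_mul_right d hk2
    omega
  set A := fpfClasses (G := G) (α := Ω)
  set B := ((Finset.univ.filter fun g : G => g ∈ ZData.H2 (G := G) a b).erase 1).image ConjClasses.mk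
  set E := (Finset.univ.filter fun g : G => g ∈ N).erase 1 with hE
  set C := E.image ConjClasses.mk
  have hA : d + 1 ≤ 2 * A.card := half_le_fpfClasses hz hab hodd hsw hh hlt
  have hB : d - 1 ≤ 2 * B.card := half_le_twoPointClasses hz hab hsw
  have hC : k ≤ C.card := by
    have hEc : E.card = k * d := by
      rw [hE, Finset.card_erase_of_mem (by simp), ← Fintype.card_subtype, ← Nat.card_eq_fintype_card]
      show Nat.card N - 1 = _
      omega
    have h := Finset.card_le_mul_card_image (f := ConjClasses.mk) E d ?_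
    · rw [hEc, mul_comm] at h
      exact Nat.le_of_mul_le_mul_left h (by omega)
    intro K hK
    obtain ⟨u, hu, rfl⟩ := Finset.mem_image.1 hK
    simp only [hE, Finset.mem_erase, Finset.mem_filter, Finset.mem_univ, true_and] at hu
    calc (E.filter fun x => ConjClasses.mk x = ConjClasses.mk u).card
        ≤ ((Finset.univ.filter fun g : G => g ∈ ZData.H2 (G := G) a b).image
            fun h => h * u * h⁻¹).card := by
          refine Finset.card_le_card fun x hx => ?_
          simp only [hE, Finset.mem_filter, Finset.mem_erase, Finset.mem_univ, true_and] at hx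
          obtain ⟨g, hg⟩ := isConj_iff.1 (ConjClasses.mk_eq_mk_iff_isConj.1 hx.2.symm)
          have hga : g • a = a := by
            by_contra hne
            refine hx.1.1 (hN.eq_one hx.1.2 hne ?_)
            rw [← hg, mul_smul, inv_smul_smul, mul_smul, show u • a = a from hN.le hu.2]
          obtain ⟨n, hn, h, hhh, rfl⟩ := hN.exists_mul hab.symm hga
          refine Finset.mem_image.2 ⟨h, by simpa using hhh, ?_⟩
          have hmem := hN.conj h (ZData.mem_H2.1 hhh).1 u hu.2
          have hcomm : n * (h * u * h⁻¹) = h * u * h⁻¹ * n :=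
            congrArg Subtype.val (hNc.is_comm.comm ⟨n, hn⟩ ⟨_, hmem⟩)
          rw [← hg, show n * h * u * (n * h)⁻¹ = n * (h * u * h⁻¹) * n⁻¹ by group, hcomm,
            mul_inv_cancel_right]
      _ ≤ (Finset.univ.filter fun g : G => g ∈ ZData.H2 (G := G) a b).card := Finset.card_image_le
      _ = d := by rw [hd, Nat.card_eq_fintype_card, Fintype.card_subtype]
  -- numbers of fixed points
  let F : G → ℕ := fun g => (CharDeep.ZC.fixF (α := Ω) g).card
  have hF : ∀ {g x : G}, ConjClasses.mk g = ConjClasses.mk x → F g = F x := by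
    intro g x hgx
    obtain ⟨c, hc⟩ := isConj_iff.1 (ConjClasses.mk_eq_mk_iff_isConj.1 hgx)
    refine Finset.card_bij (fun p _ => c • p) (fun p hp => ?_) (fun p _ q _ e => MulAction.injective c e)
      (fun q hq => ⟨c⁻¹ • q, ?_, smul_inv_smul c q⟩)
    · rw [CharDeep.ZC.mem_fixF] at hp ⊢
      rw [← hc, mul_smul, inv_smul_smul, mul_smul, hp]
    · rw [CharDeep.ZC.mem_fixF] at hq ⊢
      rw [← hc, mul_smul, mul_smul] at hq
      exact eq_inv_smul_iff.2 hq
  have hF0 : ∀ K ∈ A, ∃ g, ConjClasses.mk g = K ∧ F g = 0 := fun K hK => by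
    obtain ⟨g, hg, rfl⟩ := Finset.mem_image.1 hK
    exact ⟨g, rfl, by simp [F, (Finset.mem_filter.1 hg).2]⟩
  have hF2 : ∀ K ∈ B, ∃ g, ConjClasses.mk g = K ∧ F g = 2 := fun K hK => by
    obtain ⟨g, hg, rfl⟩ := Finset.mem_image.1 hK
    obtain ⟨hg1, hg'⟩ := Finset.mem_erase.1 hg
    obtain ⟨ga, gb⟩ := ZData.mem_H2.1 (Finset.mem_filter.1 hg').2
    refine ⟨g, rfl, le_antisymm (CharDeep.ZC.card_fixF_le hz hg1) ?_⟩
    rw [← Finset.card_pair hab]
    refine Finset.card_le_card fun p hp => ?_
    rw [Finset.mem_insert, Finset.mem_singleton] at hp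
    rcases hp with rfl | rfl
    · exact CharDeep.ZC.mem_fixF.2 ga
    · exact CharDeep.ZC.mem_fixF.2 gb
  have hF1 : ∀ K ∈ C, ∃ g, ConjClasses.mk g = K ∧ F g = 1 := fun K hK => by
    obtain ⟨g, hg, rfl⟩ := Finset.mem_image.1 hK
    simp only [hE, Finset.mem_erase, Finset.mem_filter, Finset.mem_univ, true_and] at hg
    refine ⟨g, rfl, Finset.card_eq_one.2 ⟨a, Finset.ext fun p => ?_⟩⟩
    rw [CharDeep.ZC.mem_fixF, Finset.mem_singleton]
    refine ⟨fun hp => ?_, fun e => e ▸ hN.le hg.2⟩
    by_contra hne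
    exact hg.1 (hN.eq_one hg.2 hne hp)
  have hF3 : F 1 = Nat.card Ω := by
    show (CharDeep.ZC.fixF (α := Ω) (1 : G)).card = _
    rw [CharDeep.ZC.fixF_one, Finset.card_univ, Nat.card_eq_fintype_card]
  have hdis : ∀ {S T : Finset (ConjClasses G)} {i j : ℕ}, (∀ K ∈ S, ∃ g, ConjClasses.mk g = K ∧ F g = i) →
      (∀ K ∈ T, ∃ g, ConjClasses.mk g = K ∧ F g = j) → i ≠ j → Disjoint S T := by
    intro S T i j hi hj hij
    refine Finset.disjoint_left.2 fun K hKS hKT => ?_
    obtain ⟨g, hg, hgi⟩ := hi K hKS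
    obtain ⟨x, hx, hxj⟩ := hj K hKT
    exact hij (hgi.symm.trans ((hF (hg.trans hx.symm)).trans hxj))
  have h1 : ∀ K ∈ ({ConjClasses.mk (1 : G)} : Finset (ConjClasses G)),
      ∃ g, ConjClasses.mk g = K ∧ F g = Nat.card Ω := fun K hK =>
    ⟨1, (Finset.mem_singleton.1 hK).symm, hF3⟩
  haveI : Finite (ConjClasses G) := Finite.of_surjective _ ConjClasses.mk_surjective
  haveI : Fintype (ConjClasses G) := Fintype.ofFinite _
  rw [Nat.card_eq_fintype_card (α := ConjClasses G)]
  refine le_trans ?_ (Finset.card_le_univ (A ∪ B ∪ C ∪ {ConjClasses.mk (1 : G)}))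
  rw [Finset.card_union_of_disjoint (Finset.disjoint_union_left.2
      ⟨Finset.disjoint_union_left.2 ⟨hdis hF0 h1 (by omega), hdis hF2 h1 (by omega)⟩,
        hdis hF1 h1 (by omega)⟩),
    Finset.card_union_of_disjoint (Finset.disjoint_union_left.2
      ⟨hdis hF0 hF1 (by omega), hdis hF2 hF1 (by omega)⟩),
    Finset.card_union_of_disjoint (hdis hF0 hF2 (by omega)), Finset.card_singleton]
  obtain ⟨r, hr⟩ := hodd
  omega

/-- A simple Zassenhaus group with abelian kernel and two point stabilisers of odd order has degree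
at most `2 d + 2`. -/
theorem card_le_of_simple_abelian [IsSimpleGroup G] (hZ : Cfsg.IsZassenhausGroup G Ω)
    {N : Subgroup G} {a b : Ω} (hab : a ≠ b) (hN : IsKernel N a) (hNc : IsMulCommutative N)
    (hodd : Odd (Nat.card (ZData.H2 (G := G) a b))) :
    Nat.card Ω ≤ 2 * Nat.card (ZData.H2 (G := G) a b) + 2 := by
  by_contra hbig
  push Not at hbig
  haveI : Fintype G := Fintype.ofFinite G
  have hz := zData_of_isZassenhausGroup hZ
  set d := Nat.card (ZData.H2 (G := G) a b) with hd
  set M := stabilizer G a with hM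
  set L := N.subgroupOf M with hL
  haveI : L.Normal := ⟨fun u hu g => hN.conj g g.2 u hu⟩
  have hS : TISetup M L := tiSetup hZ hab hN
  have hidx : L.index = d := index_kernel hZ hab hN
  have hd1 := one_lt_card_H2 hZ hab
  have hodd' : Odd L.index := hidx ▸ hodd
  have hd3 : 3 ≤ L.index := by
    obtain ⟨r, hr⟩ := hodd
    omega
  have hcardL : Nat.card L = Nat.card N := Nat.card_congr (Subgroup.subgroupOfEquivOfLe hN.le).toEquiv
  have hne : L ≠ ⊥ := by
    intro h
    rw [h, Subgroup.card_bot] at hcardL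
    have := hN.card_add_one hab.symm
    omega
  have habL : ∀ x y : L, x * y = y * x := fun x y => Subtype.ext (Subtype.ext
    (show ((x : M) : G) * ((y : M) : G) = ((y : M) : G) * ((x : M) : G) from
      congrArg Subtype.val (hNc.is_comm.comm (⟨((x : M) : G), x.2⟩ : N) ⟨((y : M) : G), y.2⟩)))
  have hfam : ∀ η : Cfsg.IrrCharacter M, ¬ KTriv L η → deg η = L.index := by
    intro η hη
    obtain ⟨θ, hθ, rfl⟩ := exists_exIrr hS hη
    rw [deg_exIrr, show deg θ = 1 from Nat.cast_injective (R := ℂ) (by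
      rw [← deg_spec, Char.irr_degree_one_of_comm habL θ.2, Nat.cast_one]), mul_one]
  obtain ⟨hcyc, -⟩ := isCyclic_H2 hZ hab
  have hquot : ∀ x y : M ⧸ L, x * y = y * x := by
    have hrep : ∀ x : M ⧸ L, ∃ h : M, (h : G) ∈ ZData.H2 a b ∧ (h : M ⧸ L) = x := by
      intro x
      obtain ⟨x, rfl⟩ := QuotientGroup.mk_surjective x
      obtain ⟨u, hu, h, hh, e⟩ := hN.exists_mul hab.symm (g := (x : G)) x.2
      refine ⟨⟨h, (ZData.mem_H2.1 hh).1⟩, hh, ?_⟩
      rw [show x = (⟨u, hN.le hu⟩ : M) * ⟨h, (ZData.mem_H2.1 hh).1⟩ from Subtype.ext e,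
        QuotientGroup.mk_mul, (QuotientGroup.eq_one_iff _).2 (show (⟨u, hN.le hu⟩ : M) ∈ L from hu),
        one_mul]
    intro x y
    obtain ⟨h, hh, rfl⟩ := hrep x
    obtain ⟨k, hk, rfl⟩ := hrep y
    haveI := hcyc
    have e := (IsCyclic.isMulCommutative (α := ZData.H2 (G := G) a b)).is_comm.comm (⟨h, hh⟩ : ZData.H2 (G := G) a b) ⟨k, hk⟩
    rw [← QuotientGroup.mk_mul, ← QuotientGroup.mk_mul,
      show h * k = k * h from Subtype.ext ((congrArg Subtype.val e :))]
  have hlin : ∀ β : Cfsg.IrrCharacter M, KTriv L β → deg β = 1 := by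
    intro β hβ
    obtain ⟨ψ, hψ, hg⟩ := Char.irr_exists_descend β.2 L hβ
    apply Nat.cast_injective (R := ℂ)
    rw [← deg_spec, hg, QuotientGroup.mk_one, Char.irr_degree_one_of_comm hquot hψ, Nat.cast_one]
  have hreal : ∀ g : M, g ∉ L → IsConj (g : G) (g : G)⁻¹ := by
    intro g hg
    obtain ⟨c, hc, e⟩ : ∃ c, c ≠ a ∧ (g : G) • c = c := by
      by_contra hcon
      push Not at hcon
      exact hg ((hz.mem_kernel_iff hN hab).2 ⟨g.2, Or.inr hcon⟩)
    obtain ⟨-, v, -, -, -, hv⟩ := isCyclic_H2 hZ hc.symm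
    exact isConj_iff.2 ⟨v, hv g (ZData.mem_H2.2 ⟨g.2, e⟩)⟩
  have hm := card_eq_mul hS hfam
  have hmd : Fintype.card (Fam M L) * L.index = Fintype.card (Fam M L) * d :=
    congrArg (Fintype.card (Fam M L) * ·) hidx
  rw [hcardL, hmd] at hm
  have hcN := hN.card_add_one hab.symm
  have hk3 : 3 ≤ Fintype.card (Fam M L) := by
    by_contra hlt
    have := Nat.mul_le_mul_right d (show Fintype.card (Fam M L) ≤ 2 by omega)
    omega
  refine abelian_false_of_classes hS hne hfam hk3 ?_ hodd' hd3 hlin hreal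
  exact (le_of_eq (congrArg (1 + Fintype.card (Fam M L) + ·) hidx)).trans
    (classes_ge hZ hab hN hNc hm (by omega) hodd)

omit [Finite G] [Finite Ω] in
private theorem few_aux {Ω : Type v} [Finite Ω] : ∀ (m : ℕ) {G : Type u} [Group G] [MulAction G Ω]
    [Finite G], Nat.card G = m → Cfsg.IsZassenhausGroup G Ω → ∀ {N : Subgroup G} {a b : Ω}, a ≠ b →
      IsKernel N a → IsMulCommutative N → Odd (Nat.card (ZData.H2 (G := G) a b)) →
      Nat.card (ZData.H2 (G := G) a b) + 2 < Nat.card Ω →
      2 * Nat.card (ZData.H2 (G := G) a b) + 2 = Nat.card Ω ∧ IsSimpleGroup G := by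
  intro m
  induction m using Nat.strong_induction_on with
  | _ m ih =>
    intro G _ _ _ hm hZ N a b hab hN hNc hodd hlt
    haveI : Fintype G := Fintype.ofFinite G
    have hz := zData_of_isZassenhausGroup hZ
    have hcN := hN.card_add_one hab.symm
    set d := Nat.card (ZData.H2 (G := G) a b) with hd
    have hdpos : 0 < d := Nat.card_pos
    obtain ⟨k, hk⟩ : d ∣ Nat.card Ω - 2 := by
      have h := hN.dvd_card_invariant hz hab.symm ((Finset.univ.filter fun u => u ∈ N).erase 1)
        (fun u hu => by simpa [and_comm] using hu)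
        (fun x hx u hu => by
          simp only [Finset.mem_erase, Finset.mem_filter, Finset.mem_univ, true_and] at hu ⊢
          refine ⟨fun e => hu.1 ?_, hN.conj x (ZData.mem_H2.1 hx).1 u hu.2⟩
          rw [show u = x⁻¹ * (x * u * x⁻¹) * x by group, e]; group)
      rwa [Finset.card_erase_of_mem (by simp), ← Fintype.card_subtype, ← Nat.card_eq_fintype_card,
        show Nat.card {u // u ∈ N} - 1 = Nat.card Ω - 2 by omega] at h
    have hk2 : 2 ≤ k := by
      by_contra hlt'
      have := Nat.mul_le_mul_left d (show k ≤ 1 by omega)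
      omega
    have hsimple : IsSimpleGroup G := by
      obtain ⟨g, hg, -⟩ := hZ.2.2.2.1
      haveI : Nontrivial G := ⟨⟨g, 1, hg⟩⟩
      refine ⟨fun R hR => ?_⟩
      by_contra hcon
      push Not at hcon
      haveI := hR
      have hRZ := normal_isZassenhaus hZ R hcon.1
      have hlt' : Nat.card R < m := by
        rw [← hm]
        refine lt_of_le_of_ne (Subgroup.card_le_card_group R) fun e => hcon.2 ?_
        exact Subgroup.eq_top_of_card_eq R e
      have hzR := zData_of_isZassenhausGroup hRZ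
      obtain ⟨N', hN'⟩ := hzR.exists_kernel hab
      have hN'c : IsMulCommutative N' := by
        refine ⟨⟨fun x y => ?_⟩⟩
        have hmem : ∀ z : N', ((z : R) : G) ∈ N := fun z => by
          refine (hz.mem_kernel_iff hN hab).2 ⟨hN'.le z.2, ?_⟩
          by_cases hz1 : (z : R) = 1
          · exact Or.inl (congrArg Subtype.val hz1)
          · exact Or.inr fun p hp e => hz1 (hN'.eq_one z.2 hp e)
        have h := congrArg Subtype.val (hNc.is_comm.comm ⟨_, hmem x⟩ ⟨_, hmem y⟩)
        exact Subtype.ext (Subtype.ext h)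
      set d' := Nat.card (ZData.H2 (G := R) a b) with hd'
      have hdvd : d' ∣ d := by
        have hmap : (ZData.H2 (G := R) a b).map R.subtype ≤ ZData.H2 (G := G) a b := by
          rintro _ ⟨x, hx, rfl⟩
          exact ZData.mem_H2.2 ⟨(ZData.mem_H2.1 hx).1, (ZData.mem_H2.1 hx).2⟩
        have := Subgroup.card_dvd_of_le hmap
        rwa [Subgroup.card_map_of_injective R.subtype_injective] at this
      have hd'le : d' ≤ d := Nat.le_of_dvd hdpos hdvd
      have hodd' : Odd d' := hodd.of_dvd_nat hdvd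
      obtain ⟨h2, -⟩ := ih _ hlt' rfl hRZ hab hN' hN'c hodd' (by omega)
      have hdd : d' = d := by
        have := Nat.mul_le_mul_left d hk2
        omega
      refine hcon.2 (Subgroup.eq_top_of_card_eq R ?_)
      rw [hzR.card_group hab, hz.card_group hab, ← hd, ← hd', hdd]
    haveI := hsimple
    refine ⟨?_, hsimple⟩
    have h1 := card_le_of_simple_abelian hZ hab hN hNc hodd
    have h2 := Nat.mul_le_mul_left d hk2
    omega

/-- A Zassenhaus group with abelian kernel and two point stabilisers of odd order, not sharply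
triply transitive, is simple of degree `2 d + 2`. -/
theorem abelian_odd_few (hZ : Cfsg.IsZassenhausGroup G Ω) {N : Subgroup G} {a b : Ω} (hab : a ≠ b)
    (hN : IsKernel N a) (hNc : IsMulCommutative N) (hodd : Odd (Nat.card (ZData.H2 (G := G) a b)))
    (hlt : Nat.card (ZData.H2 (G := G) a b) + 2 < Nat.card Ω) :
    2 * Nat.card (ZData.H2 (G := G) a b) + 2 = Nat.card Ω ∧ IsSimpleGroup G :=
  few_aux _ rfl hZ hab hN hNc hodd hlt

end Cfsg.Agent.Zassenhaus
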